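import Cfsg.Prelude.Def_ClassicalGeometry
import Mathlib

set_option autoImplicit false

namespace Cfsg.Agent.Classical

open Matrix

variable {F : Type*} [Field F] {n : ℕ} (Q : QuadraticForm F (Fin n → F))

theorem polarVec_dotProduct (v x : Fin n → F) :
    Cfsg.polarVec ⇑Q v ⬝ᵥ x = QuadraticMap.polar ⇑Q v x := by
  have h1 : x = ∑ j, x j • (Pi.single j (1 : F) : Fin n → F) := by
    ext i
    simp [Finset.sum_apply, Pi.single_apply]
  conv_rhs => rw [← QuadraticMap.polarBilin_apply_apply, h1, map_sum]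
  simp only [map_smul, QuadraticMap.polarBilin_apply_apply, smul_eq_mul, dotProduct, Cfsg.polarVec]
  exact Finset.sum_congr rfl fun j _ => mul_comm _ _

theorem reflection_mulVec (v x : Fin n → F) :
    (Cfsg.reflectionMatrix ⇑Q v) *ᵥ x = x - ((Q v)⁻¹ * QuadraticMap.polar ⇑Q v x) • v := by
  rw [Cfsg.reflectionMatrix, sub_mulVec, one_mulVec, smul_mulVec, vecMulVec_mulVec, op_smul_eq_smul,
    smul_smul, polarVec_dotProduct]

theorem siegel_mulVec (u v : Fin n → F) (c : F) (x : Fin n → F) :
    (Cfsg.siegelMatrix ⇑Q u v c) *ᵥ x =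
      x + (c * QuadraticMap.polar ⇑Q u x) • v - (c * QuadraticMap.polar ⇑Q v x) • u := by
  rw [Cfsg.siegelMatrix, add_mulVec, one_mulVec, smul_mulVec, sub_mulVec, vecMulVec_mulVec,
    vecMulVec_mulVec, op_smul_eq_smul, op_smul_eq_smul, smul_sub, smul_smul, smul_smul,
    polarVec_dotProduct, polarVec_dotProduct]
  abel

theorem polar_self' (v : Fin n → F) : QuadraticMap.polar ⇑Q v v = 2 * Q v := by
  rw [QuadraticMap.polar_self, nsmul_eq_mul]; norm_num

theorem map_add' (x y : Fin n → F) : Q (x + y) = Q x + Q y + QuadraticMap.polar ⇑Q x y :=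
  QuadraticMap.map_add Q x y

theorem reflection_preserves {v : Fin n → F} (hv : Q v ≠ 0) (x : Fin n → F) :
    Q ((Cfsg.reflectionMatrix ⇑Q v) *ᵥ x) = Q x := by
  rw [reflection_mulVec, sub_eq_add_neg, ← neg_smul, map_add', QuadraticMap.map_smul,
    QuadraticMap.polar_smul_right, QuadraticMap.polar_comm _ x v]
  simp only [smul_eq_mul]
  field_simp
  ring

theorem reflection_det {v : Fin n → F} (hv : Q v ≠ 0) :
    (Cfsg.reflectionMatrix ⇑Q v).det = -1 := by
  rw [Cfsg.reflectionMatrix, sub_eq_add_neg, ← neg_smul, ← smul_vecMulVec, vecMulVec_eq Unit,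
    det_one_add_replicateCol_mul_replicateRow, dotProduct_smul, polarVec_dotProduct, polar_self']
  simp only [smul_eq_mul]
  field_simp
  ring

end Cfsg.Agent.Classical
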