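import Cfsg.Prelude.Def_ClassicalGeometry
import Mathlib

set_option autoImplicit false

namespace Cfsg.Agent.Classical.Symp

open Matrix

variable {F : Type*} [Field F] {m : ℕ}

local notation "V" => (Fin m ⊕ Fin m → F)
local notation "G" => Matrix.symplecticGroup (Fin m) F

/-- The symplectic form as a bilinear form. -/
noncomputable def form (F : Type*) [Field F] (m : ℕ) : LinearMap.BilinForm F (Fin m ⊕ Fin m → F) :=
  Matrix.toBilin' (Matrix.J (Fin m) F)

theorem form_eq (u v : V) : form F m u v = Cfsg.sympForm m F u v := by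
  rw [form, Matrix.toBilin'_apply', Cfsg.sympForm]

theorem form_apply (u v : V) :
    form F m u v = ∑ i, (u (Sum.inr i) * v (Sum.inl i) - u (Sum.inl i) * v (Sum.inr i)) := by
  rw [form_eq, Cfsg.sympForm]
  simp [dotProduct, Fintype.sum_sum_type, Matrix.J, Matrix.fromBlocks_mulVec, neg_mulVec,
    Finset.sum_sub_distrib]
  ring

theorem form_swap (u v : V) : form F m u v = - form F m v u := by
  rw [form_apply, form_apply, ← Finset.sum_neg_distrib]
  exact Finset.sum_congr rfl fun i _ => by ring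

@[simp] theorem form_self (u : V) : form F m u u = 0 := by
  rw [form_apply]; exact Finset.sum_eq_zero fun i _ => by ring

theorem form_inl (u : V) (i : Fin m) : form F m u (Pi.single (Sum.inl i) 1) = u (Sum.inr i) := by
  simp [form_apply, Pi.single_apply]

theorem form_inr (u : V) (i : Fin m) : form F m u (Pi.single (Sum.inr i) 1) = - u (Sum.inl i) := by
  simp [form_apply, Pi.single_apply]

theorem form_nondeg {u : V} (h : ∀ v, form F m u v = 0) : u = 0 := by
  funext i
  rcases i with i | i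
  · simpa [form_inr] using h (Pi.single (Sum.inr i) 1)
  · simpa [form_inl] using h (Pi.single (Sum.inl i) 1)

theorem exists_form_ne {u : V} (h : u ≠ 0) : ∃ v, form F m u v ≠ 0 := by
  by_contra hc
  push Not at hc
  exact h (form_nondeg hc)

theorem mem_sp_iff {A : Matrix (Fin m ⊕ Fin m) (Fin m ⊕ Fin m) F} :
    A ∈ G ↔ ∀ u v, form F m (A *ᵥ u) (A *ᵥ v) = form F m u v := by
  have key : ∀ (B : Matrix (Fin m ⊕ Fin m) (Fin m ⊕ Fin m) F) (u v : V),
      u ⬝ᵥ ((Aᵀ * B * A) *ᵥ v) = (A *ᵥ u) ⬝ᵥ (B *ᵥ (A *ᵥ v)) := by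
    intro B u v
    rw [← mulVec_mulVec, ← mulVec_mulVec, dotProduct_mulVec, vecMul_transpose]
  rw [SymplecticGroup.mem_iff']
  constructor
  · intro h u v
    rw [form_eq, form_eq, Cfsg.sympForm, Cfsg.sympForm, ← key, h]
  · intro h
    ext i j
    have h2 := h (Pi.single i 1) (Pi.single j 1)
    rw [form_eq, form_eq, Cfsg.sympForm, Cfsg.sympForm, ← key] at h2
    simpa using h2

theorem tv_mulVec (v : V) (c : F) (x : V) :
    Cfsg.sympTransvection m v c *ᵥ x = x + (c * form F m x v) • v := by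
  rw [Cfsg.sympTransvection, add_mulVec, one_mulVec, smul_mulVec, vecMulVec_mulVec, op_smul_eq_smul,
    smul_smul, form_eq, Cfsg.sympForm, dotProduct_comm]

theorem tv_mem (v : V) (c : F) : Cfsg.sympTransvection m v c ∈ G := by
  rw [mem_sp_iff]
  intro x y
  simp only [tv_mulVec, map_add, map_smul, LinearMap.add_apply, LinearMap.smul_apply, smul_eq_mul,
    form_self, form_swap v y]
  ring

/-- The symplectic transvection as an element of the group. -/
def T (v : V) (c : F) : G := ⟨Cfsg.sympTransvection m v c, tv_mem v c⟩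

/-- The matrix of an element, acting on a vector. -/
def act (g : G) (x : V) : V := (g : Matrix (Fin m ⊕ Fin m) (Fin m ⊕ Fin m) F) *ᵥ x

theorem act_mul (g h : G) (x : V) : act (g * h) x = act g (act h x) := by
  simp [act, mulVec_mulVec]

theorem act_one (x : V) : act (1 : G) x = x := by simp [act]

theorem act_inv_act (g : G) (x : V) : act g⁻¹ (act g x) = x := by
  rw [← act_mul, inv_mul_cancel, act_one]

theorem act_act_inv (g : G) (x : V) : act g (act g⁻¹ x) = x := by
  rw [← act_mul, mul_inv_cancel, act_one]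

theorem act_form (g : G) (x y : V) : form F m (act g x) (act g y) = form F m x y :=
  mem_sp_iff.1 g.2 x y

theorem act_T (v : V) (c : F) (x : V) : act (T v c) x = x + (c * form F m x v) • v :=
  tv_mulVec v c x

theorem act_add (g : G) (x y : V) : act g (x + y) = act g x + act g y := mulVec_add _ _ _

theorem act_smul (g : G) (a : F) (x : V) : act g (a • x) = a • act g x := mulVec_smul _ _ _

theorem ext_act {g h : G} (e : ∀ x, act g x = act h x) : g = h :=
  Subtype.ext (Matrix.ext_of_mulVec_single fun i => e _)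

theorem T_mul (v : V) (c d : F) : T v c * T v d = T v (c + d) := by
  refine ext_act fun x => ?_
  simp only [act_mul, act_T, map_add, map_smul, LinearMap.add_apply, LinearMap.smul_apply, smul_eq_mul,
    form_self]
  module

theorem T_zero (v : V) : T v 0 = 1 := by
  refine ext_act fun x => ?_
  simp [act_T, act_one]

theorem conj_T (g : G) (v : V) (c : F) : g * T v c * g⁻¹ = T (act g v) c := by
  refine ext_act fun x => ?_
  rw [act_mul, act_mul, act_T, act_T, act_add, act_act_inv, act_smul]
  conv_lhs => rw [← act_form g (act g⁻¹ x) v, act_act_inv]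

theorem T_smul (v : V) (a c : F) : T (a • v) c = T v (c * a ^ 2) := by
  refine ext_act fun x => ?_
  simp only [act_T, map_smul, smul_eq_mul, smul_smul]
  ring_nf

variable (F m)

/-- The subgroup generated by transvections. -/
def H : Subgroup G :=
  Subgroup.closure {A | ∃ (w : V) (c : F),
    (A : Matrix (Fin m ⊕ Fin m) (Fin m ⊕ Fin m) F) = Cfsg.sympTransvection m w c}

variable {F m}

theorem T_mem (v : V) (c : F) : T v c ∈ H F m := Subgroup.subset_closure ⟨v, c, rfl⟩

theorem step {P : Set V} {u w : V} (hP : ∀ p ∈ P, form F m p u = form F m p w)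
    (h : form F m u w ≠ 0) : ∃ g ∈ H F m, (∀ p ∈ P, act g p = p) ∧ act g u = w := by
  refine ⟨T (w - u) (form F m u w)⁻¹, T_mem _ _, fun p hp => ?_, ?_⟩
  · rw [act_T, map_sub, hP p hp, sub_self, mul_zero, zero_smul, add_zero]
  · rw [act_T, map_sub, form_self, sub_zero, inv_mul_cancel₀ h, one_smul, add_sub_cancel]

theorem step2 {P : Set V} {u w z : V} (h1 : ∀ p ∈ P, form F m p u = form F m p z)
    (h2 : ∀ p ∈ P, form F m p z = form F m p w) (hu : form F m u z ≠ 0) (hw : form F m z w ≠ 0) :
    ∃ g ∈ H F m, (∀ p ∈ P, act g p = p) ∧ act g u = w := by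
  obtain ⟨g, hg, hgP, hgu⟩ := step h1 hu
  obtain ⟨k, hk, hkP, hkz⟩ := step h2 hw
  exact ⟨k * g, mul_mem hk hg, fun p hp => by rw [act_mul, hgP p hp, hkP p hp], by rw [act_mul, hgu, hkz]⟩

theorem exists_both {W : Submodule F V} {u w : V} (hu : ∃ z ∈ W, form F m u z ≠ 0)
    (hw : ∃ z ∈ W, form F m z w ≠ 0) : ∃ z ∈ W, form F m u z ≠ 0 ∧ form F m z w ≠ 0 := by
  obtain ⟨a, ha, hua⟩ := hu
  obtain ⟨b, hb, hbw⟩ := hw
  by_cases h1 : form F m a w ≠ 0
  · exact ⟨a, ha, hua, h1⟩
  by_cases h2 : form F m u b ≠ 0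
  · exact ⟨b, hb, h2, hbw⟩
  push Not at h1 h2
  exact ⟨a + b, add_mem ha hb, by simp [h2, hua], by simp [h1, hbw]⟩

/-- Transitivity of transvections on nonzero vectors. -/
theorem move_vec {u w : V} (hu : u ≠ 0) (hw : w ≠ 0) : ∃ g ∈ H F m, act g u = w := by
  obtain ⟨a, ha⟩ := exists_form_ne hu
  obtain ⟨b, hb⟩ := exists_form_ne hw
  obtain ⟨z, -, hz1, hz2⟩ := exists_both (W := ⊤) (u := u) (w := w) ⟨a, trivial, ha⟩
    ⟨b, trivial, by rw [form_swap]; simpa using hb⟩
  obtain ⟨g, hg, -, h⟩ := step2 (P := ∅) (z := z) (by simp) (by simp) hz1 hz2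
  exact ⟨g, hg, h⟩

/-- Fixing `P` and `u`, a partner of `u` can be moved to any other partner. -/
theorem move_partner {P : Set V} {u v v' : V} (hu : ∀ p ∈ P, form F m p u = 0)
    (hv : ∀ p ∈ P, form F m p v = 0) (hv' : ∀ p ∈ P, form F m p v' = 0) (h : form F m u v = 1)
    (h' : form F m u v' = 1) :
    ∃ g ∈ H F m, (∀ p ∈ P, act g p = p) ∧ act g u = u ∧ act g v = v' := by
  obtain ⟨g, hg, hgP, hgv⟩ : ∃ g ∈ H F m, (∀ p ∈ insert u P, act g p = p) ∧ act g v = v' := by
    by_cases hvv : form F m v v' = 0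
    · refine step2 (z := u + v) ?_ ?_ ?_ ?_
      · rintro p (rfl | hp) <;> simp [*]
      · rintro p (rfl | hp) <;> simp [*]
      · rw [map_add, form_self, add_zero, form_swap, h]; simp
      · rw [map_add, LinearMap.add_apply, h', hvv]; simp
    · refine step ?_ hvv
      rintro p (rfl | hp) <;> simp [*]
  exact ⟨g, hg, fun p hp => hgP p (Set.mem_insert_of_mem _ hp), hgP u (Set.mem_insert _ _), hgv⟩

end Cfsg.Agent.Classical.Symp
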