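import Cfsg.Agent.Classical.Symp

set_option autoImplicit false

namespace Cfsg.Agent.Classical.Symp

open Matrix
open scoped commutatorElement

variable {F : Type*} [Field F] {m : ℕ}

local notation "V" => (Fin m ⊕ Fin m → F)
local notation "G" => Matrix.symplecticGroup (Fin m) F

/-- A standard hyperbolic pair. -/
def ee (i : Fin m ⊕ Fin m) : V := Pi.single i 1

theorem form_ee_inr_inl (i : Fin m) : form F m (ee (Sum.inr i)) (ee (Sum.inl i)) = 1 := by
  simp [ee, form_inl]

theorem form_ee_ne {i j : Fin m} (hij : i ≠ j) (x : Fin m ⊕ Fin m) (hx : x = Sum.inl i ∨ x = Sum.inr i)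
    (y : Fin m ⊕ Fin m) (hy : y = Sum.inl j ∨ y = Sum.inr j) : form F m (ee x) (ee y) = 0 := by
  rcases hx with rfl | rfl <;> rcases hy with rfl | rfl <;> simp [ee, form_inl, form_inr, hij.symm]

theorem form_ee_left_inl (i : Fin m) (x : V) : form F m (ee (Sum.inl i)) x = - x (Sum.inr i) := by
  rw [form_swap, ee, form_inl]

theorem form_ee_left_inr (i : Fin m) (x : V) : form F m (ee (Sum.inr i)) x = x (Sum.inl i) := by
  rw [form_swap, ee, form_inr, neg_neg]

theorem gen (k : ℕ) : ∀ (S : Finset (Fin m)), S.card + k = m → ∀ A : G,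
    (∀ i ∈ S, act A (ee (Sum.inl i)) = ee (Sum.inl i) ∧ act A (ee (Sum.inr i)) = ee (Sum.inr i)) →
    A ∈ H F m := by
  induction k with
  | zero =>
    intro S hS A hA
    have hu : S = Finset.univ := Finset.eq_univ_of_card _ (by rw [Fintype.card_fin]; omega)
    have : A = 1 := Subtype.ext (Matrix.ext_of_mulVec_single fun i => by
      change act A (ee i) = act (1 : G) (ee i)
      rw [act_one]
      rcases i with i | i
      · exact (hA i (by rw [hu]; exact Finset.mem_univ _)).1
      · exact (hA i (by rw [hu]; exact Finset.mem_univ _)).2)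
    rw [this]; exact one_mem _
  | succ k ih =>
    intro S hS A hA
    obtain ⟨i, -, hi⟩ : ∃ i ∈ (Finset.univ : Finset (Fin m)), i ∉ S :=
      Finset.exists_mem_notMem_of_card_lt_card (by rw [Finset.card_univ, Fintype.card_fin]; omega)
    let P : Set V := {p | ∃ j ∈ S, p = ee (Sum.inl j) ∨ p = ee (Sum.inr j)}
    let W : Submodule F V :=
      { carrier := {x | ∀ p ∈ P, form F m p x = 0}
        add_mem' := fun {x y} hx hy p hp => by rw [map_add, hx p hp, hy p hp, add_zero]
        zero_mem' := fun p _ => map_zero _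
        smul_mem' := fun c x hx p hp => by rw [map_smul, hx p hp, smul_zero] }
    have hAP : ∀ p ∈ P, act A p = p := by
      rintro p ⟨j, hj, rfl | rfl⟩
      · exact (hA j hj).1
      · exact (hA j hj).2
    have hfW : ∀ x : Fin m ⊕ Fin m, (x = Sum.inl i ∨ x = Sum.inr i) → ee x ∈ W := by
      rintro x hx p ⟨j, hj, rfl | rfl⟩
      · exact form_ee_ne (i := j) (j := i) (fun e => hi (e ▸ hj)) _ (Or.inl rfl) _ hx
      · exact form_ee_ne (i := j) (j := i) (fun e => hi (e ▸ hj)) _ (Or.inr rfl) _ hx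
    have hnd : ∀ x ∈ W, x ≠ 0 → ∃ z ∈ W, form F m x z ≠ 0 := by
      intro x hx hx0
      obtain ⟨j, hj⟩ := Function.ne_iff.1 hx0
      rcases j with j | j
      · have hjS : j ∉ S := fun h => hj (by simpa [form_ee_left_inr] using hx _ ⟨j, h, Or.inr rfl⟩)
        refine ⟨ee (Sum.inr j), ?_, by rw [ee, form_inr]; simpa using hj⟩
        rintro p ⟨l, hl, rfl | rfl⟩
        · exact form_ee_ne (i := l) (j := j) (fun e => hjS (e ▸ hl)) _ (Or.inl rfl) _ (Or.inr rfl)
        · exact form_ee_ne (i := l) (j := j) (fun e => hjS (e ▸ hl)) _ (Or.inr rfl) _ (Or.inr rfl)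
      · have hjS : j ∉ S := fun h => hj (by simpa [form_ee_left_inl] using hx _ ⟨j, h, Or.inl rfl⟩)
        refine ⟨ee (Sum.inl j), ?_, by rw [ee, form_inl]; simpa using hj⟩
        rintro p ⟨l, hl, rfl | rfl⟩
        · exact form_ee_ne (i := l) (j := j) (fun e => hjS (e ▸ hl)) _ (Or.inl rfl) _ (Or.inl rfl)
        · exact form_ee_ne (i := l) (j := j) (fun e => hjS (e ▸ hl)) _ (Or.inr rfl) _ (Or.inl rfl)
    have hAW : ∀ x ∈ W, act A x ∈ W := by
      intro x hx p hp
      rw [← hAP p hp, act_form]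
      exact hx p hp
    have hf := hfW _ (Or.inr rfl)
    have he := hfW _ (Or.inl rfl)
    have hne : ee (F := F) (Sum.inr i) ≠ 0 := fun h => by simpa [ee] using congrFun h (Sum.inr i)
    have hne' : act A (ee (Sum.inr i)) ≠ 0 := by
      intro h
      apply hne
      rw [← act_inv_act A (ee (Sum.inr i)), h, act, mulVec_zero]
    obtain ⟨z, hz, hz1, hz2⟩ := exists_both (W := W) (u := act A (ee (Sum.inr i))) (w := ee (Sum.inr i))
      (hnd _ (hAW _ hf) hne') (by
        obtain ⟨z, hz, h⟩ := hnd _ hf hne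
        exact ⟨z, hz, by rw [form_swap]; simpa using h⟩)
    obtain ⟨g, hg, hgP, hgu⟩ := step2 (P := P) (z := z)
      (fun p hp => by rw [hAW _ hf p hp, hz p hp]) (fun p hp => by rw [hz p hp, hf p hp]) hz1 hz2
    have hgW : ∀ x ∈ W, act g x ∈ W := by
      intro x hx p hp
      rw [← hgP p hp, act_form]
      exact hx p hp
    obtain ⟨g', hg', hgP', hgu', hgv'⟩ := move_partner (P := P) (u := ee (Sum.inr i))
      (v := act g (act A (ee (Sum.inl i)))) (v' := ee (Sum.inl i)) hf (hgW _ (hAW _ he)) he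
      (by rw [← hgu, act_form, act_form, form_ee_inr_inl]) (form_ee_inr_inl i)
    have hmem : g' * g * A ∈ H F m := by
      refine ih (insert i S) (by rw [Finset.card_insert_of_notMem hi]; omega) _ fun j hj => ?_
      rcases Finset.mem_insert.1 hj with rfl | hj
      · exact ⟨by rw [act_mul, act_mul, hgv'], by rw [act_mul, act_mul, hgu, hgu']⟩
      · have h1 : ee (F := F) (Sum.inl j) ∈ P := ⟨j, hj, Or.inl rfl⟩
        have h2 : ee (F := F) (Sum.inr j) ∈ P := ⟨j, hj, Or.inr rfl⟩
        exact ⟨by rw [act_mul, act_mul, hAP _ h1, hgP _ h1, hgP' _ h1],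
          by rw [act_mul, act_mul, hAP _ h2, hgP _ h2, hgP' _ h2]⟩
    have := mul_mem (inv_mem (mul_mem hg' hg)) hmem
    rwa [inv_mul_cancel_left] at this

theorem H_eq_top : H F m = ⊤ :=
  eq_top_iff.2 fun A _ => gen m ∅ (by simp) A (by simp)

theorem top_of_T_mem {N : Subgroup G} (h : ∀ (v : V) (c : F), T v c ∈ N) : N = ⊤ := by
  rw [eq_top_iff, ← H_eq_top, H, Subgroup.closure_le]
  rintro A ⟨w, c, hA⟩
  rw [show A = T w c from Subtype.ext hA]
  exact h w c

/-- If the root group of one vector lies in a normal subgroup, all do. -/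
theorem T_mem_normal {N : Subgroup G} [hN : N.Normal] {v : V} (hv : v ≠ 0) (h : ∀ c, T v c ∈ N)
    (w : V) (c : F) : T w c ∈ N := by
  by_cases hw : w = 0
  · rw [show T w c = 1 from ext_act fun x => by simp [act_T, act_one, hw]]
    exact one_mem _
  obtain ⟨g, -, rfl⟩ := move_vec hv hw
  rw [← conj_T]
  exact hN.conj_mem _ (h c) g

/-- The element `diag(X, Y)` where `Xᵀ Y = 1`. -/
def D (X Y : Matrix (Fin m) (Fin m) F) (h : Xᵀ * Y = 1) : G :=
  ⟨fromBlocks X 0 0 Y, by
    have h' : Yᵀ * X = 1 := by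
      have := congrArg Matrix.transpose h
      rwa [transpose_mul, transpose_transpose, transpose_one] at this
    rw [SymplecticGroup.mem_iff']
    simp [Matrix.J, fromBlocks_transpose, fromBlocks_multiply, h, h']⟩

/-- The element `[[1, S], [0, 1]]` for symmetric `S`. -/
def U (S : Matrix (Fin m) (Fin m) F) (h : Sᵀ = S) : G :=
  ⟨fromBlocks 1 S 0 1, by
    rw [SymplecticGroup.mem_iff']
    simp [Matrix.J, fromBlocks_transpose, fromBlocks_multiply, h]⟩

theorem U_mem_commutator {X Y S S' : Matrix (Fin m) (Fin m) F} (hXY : Xᵀ * Y = 1) (hS : Sᵀ = S)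
    (hS' : S'ᵀ = S') (e : X * S * Xᵀ = S + S') : U S' hS' ∈ commutator G := by
  have h : U S' hS' = ⁅D X Y hXY, U S hS⁆ := by
    rw [commutatorElement_def, eq_mul_inv_iff_mul_eq, eq_mul_inv_iff_mul_eq]
    refine Subtype.ext ?_
    change fromBlocks 1 S' 0 1 * fromBlocks 1 S 0 1 * fromBlocks X 0 0 Y
      = fromBlocks X 0 0 Y * fromBlocks 1 S 0 1
    simp only [fromBlocks_multiply, one_mul, mul_one, zero_mul, mul_zero, add_zero, zero_add]
    refine fromBlocks_inj.2 ⟨rfl, ?_, rfl, rfl⟩
    rw [← e, mul_assoc, hXY, mul_one]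
  rw [h, commutator_def]
  exact Subgroup.commutator_mem_commutator (Subgroup.mem_top _) (Subgroup.mem_top _)

theorem U_mul {S S' : Matrix (Fin m) (Fin m) F} (h : Sᵀ = S) (h' : S'ᵀ = S') :
    U S h * U S' h' = U (S + S') (by rw [transpose_add, h, h']) := by
  refine Subtype.ext ?_
  change fromBlocks 1 S 0 1 * fromBlocks 1 S' 0 1 = fromBlocks 1 (S + S') 0 1
  simp [fromBlocks_multiply, add_comm]

theorem U_eq_T (i : Fin m) (c : F) :
    U (-(c • Matrix.single i i (1 : F))) (by simp [transpose_single]) = T (ee (Sum.inl i)) (-c) := by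
  refine ext_act fun x => ?_
  rw [act_T, act, ee, form_inl]
  change fromBlocks 1 _ 0 1 *ᵥ x = _
  rw [fromBlocks_mulVec]
  funext j
  rcases j with j | j <;> simp [Pi.single_apply, neg_mulVec, smul_mulVec, single_mulVec]
  rcases eq_or_ne j i with rfl | hj <;> simp [*]

variable [Finite F]

theorem exists_sq_ne_one (h : 4 ≤ Nat.card F) : ∃ a : F, a ≠ 0 ∧ a ^ 2 ≠ 1 := by
  classical
  haveI := Fintype.ofFinite F
  rw [Nat.card_eq_fintype_card, ← Finset.card_univ] at h
  obtain ⟨a, -, ha⟩ := Finset.exists_mem_notMem_of_card_lt_card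
    (lt_of_le_of_lt (Finset.card_le_three : ({0, 1, -1} : Finset F).card ≤ 3)
      (show 3 < (Finset.univ : Finset F).card by omega))
  simp only [Finset.mem_insert, Finset.mem_singleton, not_or] at ha
  refine ⟨a, ha.1, fun h2 => ?_⟩
  rcases sq_eq_one_iff.1 h2 with h3 | h3
  · exact ha.2.1 h3
  · exact ha.2.2 h3

theorem perfect (h : 3 ≤ m ∨ (m = 2 ∧ 3 ≤ Nat.card F) ∨ 4 ≤ Nat.card F) : commutator G = ⊤ := by
  by_cases hq : 4 ≤ Nat.card F
  · refine top_of_T_mem fun v c => ?_
    rcases eq_or_ne v 0 with rfl | hv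
    · rw [show T (0 : V) c = 1 from ext_act fun x => by simp [act_T, act_one]]
      exact one_mem _
    obtain ⟨a, ha, ha2⟩ := exists_sq_ne_one hq
    have hne : a ^ 2 - 1 ≠ 0 := sub_ne_zero.2 ha2
    obtain ⟨g, -, hg⟩ := move_vec hv (smul_ne_zero ha hv)
    have e : ⁅g, T v (c / (a ^ 2 - 1))⁆ = T v c := by
      rw [commutatorElement_def, conj_T, hg, T_smul, mul_inv_eq_iff_eq_mul, T_mul]
      congr 1
      field_simp
      ring
    rw [← e, commutator_def]
    exact Subgroup.commutator_mem_commutator (Subgroup.mem_top _) (Subgroup.mem_top _)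
  have hm : 2 ≤ m := by omega
  let i₀ : Fin m := ⟨0, by omega⟩
  let i₁ : Fin m := ⟨1, by omega⟩
  have h01 : i₀ ≠ i₁ := by simp [i₀, i₁]
  suffices key : ∀ c : F, U (-(c • Matrix.single i₀ i₀ (1 : F))) (by simp [transpose_single]) ∈ commutator G by
    refine top_of_T_mem (fun v c => T_mem_normal (v := ee (Sum.inl i₀)) ?_ (fun d => ?_) v c)
    · exact fun h => by simpa [ee] using congrFun h (Sum.inl i₀)
    · have := key (-d)
      rwa [U_eq_T, neg_neg] at this
  have hX : ∀ {i j : Fin m}, i ≠ j → (1 + Matrix.single i j (1 : F))ᵀ * (1 - Matrix.single j i 1) = 1 := by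
    intro i j hij
    simp [transpose_single, add_mul, mul_sub, hij]
  intro c
  by_cases h2 : (2 : F) = 0
  · have hm3 : 3 ≤ m := by
      rcases h with h | ⟨h, hq3⟩ | h
      · exact h
      · exfalso
        haveI := Fintype.ofFinite F
        haveI : CharP F 2 := CharP.ringChar_of_prime_eq_zero Nat.prime_two h2 ▸ ringChar.charP F
        obtain ⟨k, -, hk⟩ := FiniteField.card F 2
        rw [Nat.card_eq_fintype_card, hk] at hq hq3
        have : (k : ℕ) < 2 := by
          by_contra hk2
          exact hq (le_trans (by norm_num) (Nat.pow_le_pow_right (by norm_num : 0 < 2) (not_lt.1 hk2)))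
        have : (k : ℕ) = 1 := by have := k.pos; omega
        rw [this] at hq3; omega
      · omega
    let i₂ : Fin m := ⟨2, by omega⟩
    have h02 : i₀ ≠ i₂ := by simp [i₀, i₂]
    have h12 : i₁ ≠ i₂ := by simp [i₁, i₂]
    set S1 : Matrix (Fin m) (Fin m) F := -c • (Matrix.single i₁ i₂ 1 + Matrix.single i₂ i₁ 1) with hS1
    set A : Matrix (Fin m) (Fin m) F := -c • (Matrix.single i₀ i₁ 1 + Matrix.single i₁ i₀ 1) with hA
    have m1 : U A (by simp [hA, transpose_single, add_comm]) ∈ commutator G := by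
      refine U_mem_commutator (X := 1 + Matrix.single i₀ i₂ 1) (Y := 1 - Matrix.single i₂ i₀ 1) (S := S1)
        (hX h02) (by simp [hS1, transpose_single, add_comm]) _ ?_
      simp [hS1, hA, transpose_single, add_mul, mul_add, h12, h12.symm, h02, h02.symm, h01, h01.symm]
      abel
    set B : Matrix (Fin m) (Fin m) F :=
      -c • (Matrix.single i₀ i₀ 1 + (Matrix.single i₀ i₁ 1 + Matrix.single i₁ i₀ 1)) with hB
    have m2 : U B (by simp [hB, transpose_single, add_comm]) ∈ commutator G := by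
      refine U_mem_commutator (X := 1 + Matrix.single i₀ i₁ 1) (Y := 1 - Matrix.single i₁ i₀ 1)
        (S := -c • Matrix.single i₁ i₁ 1) (hX h01) (by simp [transpose_single]) _ ?_
      simp [hB, transpose_single, add_mul, mul_add, h01, h01.symm]
      abel
    have hc2 : ∀ x : F, x + x = 0 := fun x => by rw [← two_mul, h2, zero_mul]
    have := mul_mem m2 m1
    rw [U_mul] at this
    convert this using 2
    rw [hB, hA, ← smul_add, add_assoc, ← two_smul F (Matrix.single i₀ i₁ (1 : F) + _), h2, zero_smul,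
      add_zero, neg_smul]
  · set S2 : Matrix (Fin m) (Fin m) F := (-c / 2) • (Matrix.single i₀ i₁ 1 + Matrix.single i₁ i₀ 1)
    refine U_mem_commutator (X := 1 + Matrix.single i₀ i₁ 1) (Y := 1 - Matrix.single i₁ i₀ 1) (S := S2)
      (hX h01) (by simp [S2, transpose_single, add_comm]) _ ?_
    simp [S2, transpose_single, add_mul, mul_add, h01, h01.symm]
    ext a b
    simp [Matrix.single_apply]
    split_ifs <;> field_simp <;> ring

omit [Finite F]

theorem exists_not_eigen {g : G} (hg : g ∉ Subgroup.center G) : ∃ v : V, ∀ a : F, act g v ≠ a • v := by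
  by_contra hc
  push Not at hc
  obtain ⟨b, hb⟩ : ∃ b : F, ∀ v, act g v = b • v := by
    obtain ⟨b, hb⟩ := (LinearMap.exists_eq_smul_id_of_forall_notLinearIndependent
      (f := Matrix.mulVecLin (g : Matrix (Fin m ⊕ Fin m) (Fin m ⊕ Fin m) F)) fun v => by
        obtain ⟨a, ha⟩ := hc v
        intro hli
        have := LinearIndependent.pair_iff.1 hli a (-1) (by
          change a • v + (-1 : F) • act g v = 0
          rw [ha]; simp)
        simp at this)
    exact ⟨b, fun v => LinearMap.congr_fun hb v⟩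
  exact hg (Subgroup.mem_center_iff.2 fun k => ext_act fun x => by
    rw [act_mul, act_mul, hb, hb, act_smul])

theorem move_perp {u v v' : V} (hu : u ≠ 0) (hv : form F m u v = 0) (hv' : form F m u v' = 0)
    (hvu : ∀ a : F, v ≠ a • u) (hvu' : ∀ a : F, v' ≠ a • u) :
    ∃ g : G, act g u = u ∧ act g v = v' := by
  obtain ⟨b, hb⟩ := exists_form_ne hu
  let W : Submodule F V := LinearMap.ker (form F m u)
  have hnd : ∀ x : V, form F m u x = 0 → (∀ a : F, x ≠ a • u) → ∃ z ∈ W, form F m x z ≠ 0 := by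
    intro x hx hxu
    by_contra hc
    push Not at hc
    apply hxu (form F m x b / form F m u b)
    refine sub_eq_zero.1 (form_nondeg fun z => ?_)
    have h1 := hc (z - (form F m u z / form F m u b) • b) (by
      simp only [W, LinearMap.mem_ker, map_sub, map_smul, smul_eq_mul]
      field_simp
      ring)
    simp only [map_sub, map_smul, smul_eq_mul, LinearMap.sub_apply, LinearMap.smul_apply] at h1 ⊢
    rw [← h1]
    field_simp
  obtain ⟨z, hz, hz1, hz2⟩ := exists_both (W := W) (u := v) (w := v') (hnd v hv hvu) (by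
    obtain ⟨z, hz, h⟩ := hnd v' hv' hvu'
    exact ⟨z, hz, by rw [form_swap]; simpa using h⟩)
  obtain ⟨g, -, hgP, hgv⟩ := step2 (P := {u}) (z := z) (by rintro p rfl; rw [hv]; exact (LinearMap.mem_ker.1 hz).symm)
    (by rintro p rfl; rw [hv']; exact LinearMap.mem_ker.1 hz) hz1 hz2
  exact ⟨g, hgP u rfl, hgv⟩

theorem normal_eq_top (hperf : commutator G = ⊤) {N : Subgroup G} [hN : N.Normal]
    (hnc : ¬ N ≤ Subgroup.center G) : N = ⊤ := by
  obtain ⟨g₀, hg₀, hgc⟩ := Set.not_subset.1 hnc
  obtain ⟨u₀, hu₀⟩ := exists_not_eigen hgc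
  -- the relation "in the same block"
  let R : V → V → Prop := fun x y => ∃ n ∈ N, ∃ a : F, a ≠ 0 ∧ act n x = a • y
  have Rtrans : ∀ {x y z}, R x y → R y z → R x z := by
    rintro x y z ⟨n, hn, a, ha, h1⟩ ⟨k, hk, b, hb, h2⟩
    exact ⟨k * n, mul_mem hk hn, a * b, mul_ne_zero ha hb, by rw [act_mul, h1, act_smul, h2, smul_smul]⟩
  have Rsymm : ∀ {x y}, R x y → R y x := by
    rintro x y ⟨n, hn, a, ha, h1⟩
    refine ⟨n⁻¹, inv_mem hn, a⁻¹, inv_ne_zero ha, ?_⟩
    have h2 : act n⁻¹ (act n x) = act n⁻¹ (a • y) := by rw [h1]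
    rw [act_inv_act, act_smul] at h2
    rw [h2, smul_smul, inv_mul_cancel₀ ha, one_smul]
  have Rconj : ∀ {x y} (k : G), R x y → R (act k x) (act k y) := by
    rintro x y k ⟨n, hn, a, ha, h1⟩
    exact ⟨k * n * k⁻¹, hN.conj_mem n hn k, a, ha, by rw [act_mul, act_mul, act_inv_act, h1, act_smul]⟩
  have Rsmul : ∀ {x y} {a : F}, a ≠ 0 → R x (a • y) → R x y := by
    rintro x y a ha ⟨n, hn, b, hb, h1⟩
    exact ⟨n, hn, b * a, mul_ne_zero hb ha, by rw [h1, smul_smul]⟩
  have Rsmul' : ∀ {x : V} {a : F}, a ≠ 0 → R x (a • x) := fun {x a} ha =>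
    ⟨1, one_mem _, a⁻¹, inv_ne_zero ha, by rw [act_one, smul_smul, inv_mul_cancel₀ ha, one_smul]⟩
  have hu0 : u₀ ≠ 0 := fun h => hu₀ 0 (by simp [h, act])
  set r₀ := act g₀ u₀ with hr₀
  have hr0 : r₀ ≠ 0 := fun h => hu₀ 0 (h.trans (zero_smul F u₀).symm)
  have hR0 : R u₀ r₀ := ⟨g₀, hg₀, 1, one_ne_zero, by rw [one_smul]⟩
  -- all non-orthogonal points to `u₀`, or all orthogonal ones, are in its block
  have hall : ∀ y : V, y ≠ 0 → R u₀ y := by
    by_cases hp : form F m u₀ r₀ = 0
    · have hperp : ∀ y, form F m u₀ y = 0 → y ≠ 0 → R u₀ y := by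
        intro y hy hy0
        by_cases hyu : ∃ a : F, y = a • u₀
        · obtain ⟨a, rfl⟩ := hyu
          exact Rsmul' (left_ne_zero_of_smul hy0)
        push Not at hyu
        obtain ⟨k, hk1, hk2⟩ := move_perp hu0 hp hy (fun a ha => hu₀ a ha) hyu
        have := Rconj k hR0
        rwa [hk1, hk2] at this
      have hperp' : ∀ y, form F m r₀ y = 0 → y ≠ 0 → R u₀ y := by
        intro y hy hy0
        obtain ⟨k, -, hk⟩ := move_vec hu0 hr0
        have h1 : form F m u₀ (act k⁻¹ y) = 0 := by rw [← act_form k, act_act_inv, hk, hy]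
        have h2 : act k⁻¹ y ≠ 0 := by
          intro h
          apply hy0
          rw [← act_act_inv k y, h, act, mulVec_zero]
        have := Rconj k (hperp _ h1 h2)
        rw [hk, act_act_inv] at this
        exact Rtrans hR0 this
      intro y hy0
      by_cases hy : form F m u₀ y = 0
      · exact hperp y hy hy0
      -- find `x` orthogonal to `r₀` but not to `u₀`
      obtain ⟨b, hb⟩ := exists_form_ne hr0
      obtain ⟨x, hx1, hx2⟩ : ∃ x, form F m r₀ x = 0 ∧ form F m u₀ x ≠ 0 := by
        by_contra hc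
        push Not at hc
        apply hu₀ (form F m r₀ b / form F m u₀ b)
        have hub : form F m u₀ b ≠ 0 := by
          intro h0
          apply hu0
          refine form_nondeg fun z => ?_
          have h1 := hc (z - (form F m r₀ z / form F m r₀ b) • b) (by
            simp only [map_sub, map_smul, smul_eq_mul]; field_simp; ring)
          simpa [h0] using h1
        refine sub_eq_zero.1 (form_nondeg fun z => ?_)
        have h1 := hc (z - (form F m r₀ z / form F m r₀ b) • b) (by
          simp only [map_sub, map_smul, smul_eq_mul]; field_simp; ring)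
        simp only [map_sub, map_smul, smul_eq_mul, LinearMap.sub_apply, LinearMap.smul_apply] at h1 ⊢
        field_simp at h1 ⊢
        linear_combination -h1
      have hx0 : x ≠ 0 := fun h => hx2 (by rw [h, map_zero])
      obtain ⟨k, -, -, hk1, hk2⟩ := move_partner (P := ∅) (u := u₀) (v := (form F m u₀ x)⁻¹ • x)
        (v' := (form F m u₀ y)⁻¹ • y) (by simp) (by simp) (by simp)
        (by rw [map_smul, smul_eq_mul, inv_mul_cancel₀ hx2]) (by rw [map_smul, smul_eq_mul, inv_mul_cancel₀ hy])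
      have h := Rconj k (Rtrans (hperp' x hx1 hx0) (Rsmul' (inv_ne_zero hx2)))
      rw [hk1, hk2] at h
      exact Rsmul (inv_ne_zero hy) h
    · have hnp : ∀ y, form F m u₀ y ≠ 0 → R u₀ y := by
        intro y hy
        obtain ⟨k, -, -, hk1, hk2⟩ := move_partner (P := ∅) (u := u₀) (v := (form F m u₀ r₀)⁻¹ • r₀)
          (v' := (form F m u₀ y)⁻¹ • y) (by simp) (by simp) (by simp)
          (by rw [map_smul, smul_eq_mul, inv_mul_cancel₀ hp]) (by rw [map_smul, smul_eq_mul, inv_mul_cancel₀ hy])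
        have h := Rconj k (Rtrans hR0 (Rsmul' (inv_ne_zero hp)))
        rw [hk1, hk2] at h
        exact Rsmul (inv_ne_zero hy) h
      intro y hy0
      by_cases hy : form F m u₀ y = 0
      swap
      · exact hnp y hy
      obtain ⟨z, -, hz1, hz2⟩ := exists_both (W := ⊤) (u := u₀) (w := y) ⟨r₀, trivial, hp⟩ (by
        obtain ⟨b, hb⟩ := exists_form_ne hy0
        exact ⟨b, trivial, by rw [form_swap]; simpa using hb⟩)
      have hz0 : z ≠ 0 := fun h => hz1 (by rw [h, map_zero])
      obtain ⟨k, -, hk⟩ := move_vec hu0 hz0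
      have h3 : form F m u₀ (act k⁻¹ y) ≠ 0 := by rwa [← act_form k, act_act_inv, hk]
      have h4 := Rconj k (hnp _ h3)
      rw [hk, act_act_inv] at h4
      exact Rtrans (hnp z hz1) h4
  -- every root group is conjugate to that of `u₀` by `N`
  have hT : ∀ (w : V) (c : F), ∃ n ∈ N, ∃ d : F, T w c = n * T u₀ d * n⁻¹ := by
    intro w c
    by_cases hw : w = 0
    · refine ⟨1, one_mem _, 0, ?_⟩
      rw [T_zero, show T w c = 1 from ext_act fun x => by simp [act_T, act_one, hw]]
      simp
    obtain ⟨n, hn, a, ha, h⟩ := hall w hw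
    refine ⟨n, hn, c / a ^ 2, ?_⟩
    rw [conj_T, h, T_smul]
    congr 1
    field_simp
  let π := QuotientGroup.mk' N
  have hgen : ∀ x : G, π x ∈ Subgroup.closure (Set.range fun d => π (T u₀ d)) := by
    intro x
    have : (Subgroup.closure (Set.range fun d => π (T u₀ d))).comap π = ⊤ := by
      refine top_of_T_mem fun w c => ?_
      obtain ⟨n, hn, d, h⟩ := hT w c
      rw [Subgroup.mem_comap]
      rw [h, map_mul, map_mul, map_inv, show π n = 1 from (QuotientGroup.eq_one_iff n).2 hn, one_mul, inv_one, mul_one]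
      exact Subgroup.subset_closure ⟨d, rfl⟩
    exact (Subgroup.mem_comap).1 (this ▸ Subgroup.mem_top x)
  have hcomm : ∀ x y : G, π x * π y = π y * π x := by
    intro x y
    have habel : ∀ a ∈ Set.range (fun d => π (T u₀ d)), ∀ b ∈ Set.range (fun d => π (T u₀ d)), a * b = b * a := by
      rintro _ ⟨d, rfl⟩ _ ⟨d', rfl⟩
      rw [← map_mul, ← map_mul, T_mul, T_mul, add_comm]
    exact Subgroup.isMulCommutative_closure habel |>.is_comm.comm ⟨_, hgen x⟩ ⟨_, hgen y⟩ |> congrArg Subtype.val
  rw [eq_top_iff, ← hperf, commutator_def, Subgroup.commutator_le]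
  intro x _ y _
  rw [← QuotientGroup.eq_one_iff]
  change π ⁅x, y⁆ = 1
  rw [map_commutatorElement, commutatorElement_eq_one_iff_mul_comm]
  exact hcomm x y

end Cfsg.Agent.Classical.Symp
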